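/-
Stabiliser in `Sp(V)` of a non-degenerate subspace: splitting `V = W ⊕ W^⊥`.
-/
import Mathlib
import Cfsg.Agent.Lib.Witt.SympModel

set_option autoImplicit false

namespace Cfsg.Agent.Lib.Witt.SympStab

open Matrix Cfsg
open Cfsg.Agent.Lib.Classical.SympForm
open Cfsg.Agent.Lib.Classical.Alt

variable {F : Type*} [Field F]

theorem sympForm_zero_left' (r : ℕ) (y : Fin r ⊕ Fin r → F) : sympForm r F 0 y = 0 := by
  simp [sympForm]

theorem sympForm_zero_right' (r : ℕ) (y : Fin r ⊕ Fin r → F) : sympForm r F y 0 = 0 := by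
  simp [sympForm]

theorem sympForm_nondeg (r : ℕ) (x : Fin r ⊕ Fin r → F) (h : ∀ y, sympForm r F x y = 0) : x = 0 := by
  have hN := (sympBilin_nondegenerate (m := r) (F := F)).1
  exact hN x (fun y => h y)

section Generic

variable {m k l : ℕ} (Θ : ((Fin k ⊕ Fin k → F) × (Fin l ⊕ Fin l → F)) ≃ₗ[F] (Fin m ⊕ Fin m → F))
  (hΘ : ∀ a b a' b', sympForm m F (Θ (a, b)) (Θ (a', b')) = sympForm k F a a' + sympForm l F b b')

/-- Lifts a pair of isometries. -/
noncomputable def liftIso (A : Matrix.symplecticGroup (Fin k) F × Matrix.symplecticGroup (Fin l) F) :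
    isomGroup (sympBilin m F) :=
  ⟨Θ.symm.trans (((spLin A.1).prodCongr (spLin A.2)).trans Θ), by
    intro x y
    obtain ⟨⟨a, b⟩, rfl⟩ := Θ.surjective x
    obtain ⟨⟨a', b'⟩, rfl⟩ := Θ.surjective y
    simp only [sympBilin_apply, LinearEquiv.trans_apply, LinearEquiv.symm_apply_apply,
      LinearEquiv.prodCongr_apply, spLin_apply]
    rw [hΘ, hΘ, (mem_symplecticGroup_iff _).1 A.1.2, (mem_symplecticGroup_iff _).1 A.2.2]⟩

theorem liftIso_apply (A : Matrix.symplecticGroup (Fin k) F × Matrix.symplecticGroup (Fin l) F)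
    (a : Fin k ⊕ Fin k → F) (b : Fin l ⊕ Fin l → F) :
    (liftIso Θ hΘ A).1 (Θ (a, b)) = Θ (A.1.1 *ᵥ a, A.2.1 *ᵥ b) := by
  simp [liftIso]

/-- The lift, as a matrix. -/
noncomputable def liftMat (A : Matrix.symplecticGroup (Fin k) F × Matrix.symplecticGroup (Fin l) F) :
    Matrix.symplecticGroup (Fin m) F :=
  spEquiv.symm (liftIso Θ hΘ A)

theorem liftMat_mulVec (A : Matrix.symplecticGroup (Fin k) F × Matrix.symplecticGroup (Fin l) F)
    (a : Fin k ⊕ Fin k → F) (b : Fin l ⊕ Fin l → F) :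
    (liftMat Θ hΘ A).1 *ᵥ Θ (a, b) = Θ (A.1.1 *ᵥ a, A.2.1 *ᵥ b) := by
  unfold liftMat
  rw [spEquiv_symm_mulVec, liftIso_apply]

theorem liftMat_mul (A A' : Matrix.symplecticGroup (Fin k) F × Matrix.symplecticGroup (Fin l) F) :
    liftMat Θ hΘ (A * A') = liftMat Θ hΘ A * liftMat Θ hΘ A' := by
  apply Subtype.ext
  apply Matrix.mulVec_injective
  funext x
  obtain ⟨⟨a, b⟩, rfl⟩ := Θ.surjective x
  rw [Submonoid.coe_mul, ← Matrix.mulVec_mulVec, liftMat_mulVec, liftMat_mulVec, liftMat_mulVec]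
  simp [Matrix.mulVec_mulVec]

include hΘ in
/-- The generic isomorphism. -/
theorem nonempty_equiv (W : Submodule F (Fin m ⊕ Fin m → F))
    (hW : ∀ x, x ∈ W ↔ ∃ a, x = Θ (a, 0)) :
    Nonempty (↥(Cfsg.stabilizing (Cfsg.spToMat m F) (W : Set (Fin m ⊕ Fin m → F))) ≃*
      Matrix.symplecticGroup (Fin k) F × Matrix.symplecticGroup (Fin l) F) := by
  classical
  have hmem : ∀ A, liftMat Θ hΘ A ∈ Cfsg.stabilizing (Cfsg.spToMat m F) (W : Set (Fin m ⊕ Fin m → F)) := by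
    intro A v
    obtain ⟨⟨a, b⟩, rfl⟩ := Θ.surjective v
    show Θ (a, b) ∈ W ↔ (liftMat Θ hΘ A).1 *ᵥ Θ (a, b) ∈ W
    rw [liftMat_mulVec, hW, hW]
    constructor
    · rintro ⟨c, hc⟩
      have := Θ.injective hc
      simp only [Prod.mk.injEq] at this
      refine ⟨A.1.1 *ᵥ a, ?_⟩
      rw [this.2, Matrix.mulVec_zero]
    · rintro ⟨c, hc⟩
      have := Θ.injective hc
      simp only [Prod.mk.injEq] at this
      refine ⟨a, ?_⟩
      have h0 : b = 0 := by
        have h1 : A.2.1 *ᵥ b = 0 := this.2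
        have h2 : (A.2⁻¹).1 *ᵥ (A.2.1 *ᵥ b) = b := by
          rw [Matrix.mulVec_mulVec, ← Submonoid.coe_mul, inv_mul_cancel]
          simp
        rw [← h2, h1, Matrix.mulVec_zero]
      rw [h0]
  let Φ : Matrix.symplecticGroup (Fin k) F × Matrix.symplecticGroup (Fin l) F →*
      ↥(Cfsg.stabilizing (Cfsg.spToMat m F) (W : Set (Fin m ⊕ Fin m → F))) :=
    { toFun := fun A => ⟨liftMat Θ hΘ A, hmem A⟩
      map_one' := by
        apply Subtype.ext
        apply Subtype.ext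
        apply Matrix.mulVec_injective
        funext x
        obtain ⟨⟨a, b⟩, rfl⟩ := Θ.surjective x
        show (liftMat Θ hΘ 1).1 *ᵥ Θ (a, b) = (1 : Matrix _ _ F) *ᵥ Θ (a, b)
        rw [liftMat_mulVec]
        simp
      map_mul' := fun A A' => by
        apply Subtype.ext
        exact liftMat_mul Θ hΘ A A' }
  have hinj : Function.Injective Φ := by
    rw [injective_iff_map_eq_one]
    intro A hA
    have h1 : ∀ a b, Θ (A.1.1 *ᵥ a, A.2.1 *ᵥ b) = Θ (a, b) := by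
      intro a b
      rw [← liftMat_mulVec Θ hΘ]
      have : (liftMat Θ hΘ A).1 = 1 := congrArg (fun x => x.1.1) hA
      rw [this, Matrix.one_mulVec]
    apply Prod.ext
    · apply Subtype.ext
      apply Matrix.mulVec_injective
      funext a
      have := Θ.injective (h1 a 0)
      simpa using congrArg Prod.fst this
    · apply Subtype.ext
      apply Matrix.mulVec_injective
      funext b
      have := Θ.injective (h1 0 b)
      simpa using congrArg Prod.snd this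
  have hsurj : Function.Surjective Φ := by
    rintro ⟨M, hM⟩
    have hM' : ∀ v, v ∈ W ↔ M.1 *ᵥ v ∈ W := hM
    have hiso : ∀ u v, sympForm m F (M.1 *ᵥ u) (M.1 *ᵥ v) = sympForm m F u v :=
      (mem_symplecticGroup_iff _).1 M.2
    have hMinv : ∀ x, M.1 *ᵥ ((M⁻¹).1 *ᵥ x) = x := by
      intro x
      rw [Matrix.mulVec_mulVec, ← Submonoid.coe_mul, mul_inv_cancel]
      simp
    -- The action on `W`.
    let A₀ : (Fin k ⊕ Fin k → F) →ₗ[F] (Fin k ⊕ Fin k → F) :=
      LinearMap.fst F _ _ ∘ₗ Θ.symm.toLinearMap ∘ₗ Matrix.mulVecLin M.1 ∘ₗ Θ.toLinearMap ∘ₗ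
        LinearMap.inl F _ _
    let C₀ : (Fin l ⊕ Fin l → F) →ₗ[F] (Fin l ⊕ Fin l → F) :=
      LinearMap.snd F _ _ ∘ₗ Θ.symm.toLinearMap ∘ₗ Matrix.mulVecLin M.1 ∘ₗ Θ.toLinearMap ∘ₗ
        LinearMap.inr F _ _
    have hA₀ : ∀ a, M.1 *ᵥ Θ (a, 0) = Θ (A₀ a, 0) := by
      intro a
      have h1 : Θ (a, 0) ∈ W := (hW _).2 ⟨a, rfl⟩
      obtain ⟨c, hc⟩ := (hW _).1 ((hM' _).1 h1)
      have : A₀ a = c := by
        simp only [A₀, LinearMap.comp_apply, LinearMap.inl_apply, LinearEquiv.coe_coe,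
          Matrix.mulVecLin_apply, LinearMap.fst_apply]
        rw [hc]
        simp
      rw [this, hc]
    have hC₀ : ∀ b, M.1 *ᵥ Θ (0, b) = Θ (0, C₀ b) := by
      intro b
      obtain ⟨⟨c, d⟩, hcd⟩ := Θ.surjective (M.1 *ᵥ Θ (0, b))
      have hc : c = 0 := by
        apply sympForm_nondeg
        intro a
        have h1 : (M⁻¹).1 *ᵥ Θ (a, 0) ∈ W := by
          rw [hM', hMinv]
          exact (hW _).2 ⟨a, rfl⟩
        obtain ⟨a', ha'⟩ := (hW _).1 h1
        have h2 : M.1 *ᵥ Θ (a', 0) = Θ (a, 0) := by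
          rw [← ha', hMinv]
        have h3 := hiso (Θ (0, b)) (Θ (a', 0))
        rw [h2, ← hcd, hΘ, hΘ] at h3
        simpa [sympForm_zero_left', sympForm_zero_right'] using h3
      have : C₀ b = d := by
        simp only [C₀, LinearMap.comp_apply, LinearMap.inr_apply, LinearEquiv.coe_coe,
          Matrix.mulVecLin_apply, LinearMap.snd_apply]
        rw [← hcd]
        simp
      rw [this, ← hcd, hc]
    have hAiso : ∀ a a', sympForm k F (A₀ a) (A₀ a') = sympForm k F a a' := by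
      intro a a'
      have h := hiso (Θ (a, 0)) (Θ (a', 0))
      rw [hA₀, hA₀, hΘ, hΘ] at h
      simpa [sympForm_zero_left'] using h
    have hCiso : ∀ b b', sympForm l F (C₀ b) (C₀ b') = sympForm l F b b' := by
      intro b b'
      have h := hiso (Θ (0, b)) (Θ (0, b'))
      rw [hC₀, hC₀, hΘ, hΘ] at h
      simpa [sympForm_zero_left'] using h
    let A : Matrix.symplecticGroup (Fin k) F := ⟨LinearMap.toMatrix' A₀, by
      rw [mem_symplecticGroup_iff]
      intro u v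
      rw [LinearMap.toMatrix'_mulVec, LinearMap.toMatrix'_mulVec]
      exact hAiso u v⟩
    let C : Matrix.symplecticGroup (Fin l) F := ⟨LinearMap.toMatrix' C₀, by
      rw [mem_symplecticGroup_iff]
      intro u v
      rw [LinearMap.toMatrix'_mulVec, LinearMap.toMatrix'_mulVec]
      exact hCiso u v⟩
    refine ⟨(A, C), ?_⟩
    apply Subtype.ext
    apply Subtype.ext
    apply Matrix.mulVec_injective
    funext x
    obtain ⟨⟨a, b⟩, rfl⟩ := Θ.surjective x
    show (liftMat Θ hΘ (A, C)).1 *ᵥ Θ (a, b) = M.1 *ᵥ Θ (a, b)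
    rw [liftMat_mulVec]
    have hsplit : ∀ a b, Θ (a, b) = Θ (a, 0) + Θ (0, b) := by
      intro a b
      rw [← map_add]
      simp
    rw [hsplit a b, Matrix.mulVec_add, hA₀, hC₀, ← hsplit]
    show Θ (LinearMap.toMatrix' A₀ *ᵥ a, LinearMap.toMatrix' C₀ *ᵥ b) = _
    rw [LinearMap.toMatrix'_mulVec, LinearMap.toMatrix'_mulVec]
  exact ⟨(MulEquiv.ofBijective Φ ⟨hinj, hsurj⟩).symm⟩

end Generic

/-- Main theorem. -/
theorem stabilizer_equiv_prod (m k : ℕ) (hk : k ≤ m) (W : Submodule F (Fin m ⊕ Fin m → F))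
    (hWk : Module.finrank F W = 2 * k)
    (hW : ∀ u ∈ W, (∀ v ∈ W, Cfsg.sympForm m F u v = 0) → u = 0) :
    Nonempty (↥(Cfsg.stabilizing (Cfsg.spToMat m F) (W : Set (Fin m ⊕ Fin m → F))) ≃*
      Matrix.symplecticGroup (Fin k) F × Matrix.symplecticGroup (Fin (m - k)) F) := by
  classical
  let B := sympBilin m F
  have hAlt : B.IsAlt := sympBilin_isAlt
  have hRefl : B.IsRefl := hAlt.isRefl
  have hRes : (B.restrict W).Nondegenerate := by
    have hAltW : (B.restrict W).IsAlt := fun x => hAlt x.1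
    refine (LinearMap.IsRefl.nondegenerate_iff_separatingLeft hAltW.isRefl).2 ?_
    intro x hx
    apply Subtype.ext
    exact hW x.1 x.2 (fun v hv => hx ⟨v, hv⟩)
  have hC : IsCompl W (B.orthogonal W) :=
    LinearMap.BilinForm.isCompl_orthogonal_of_restrict_nondegenerate hRefl hRes
  have hRes' : (B.restrict (B.orthogonal W)).Nondegenerate := by
    have hAltW : (B.restrict (B.orthogonal W)).IsAlt := fun x => hAlt x.1
    refine (LinearMap.IsRefl.nondegenerate_iff_separatingLeft hAltW.isRefl).2 ?_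
    intro x hx
    apply Subtype.ext
    apply sympForm_nondeg
    intro y
    obtain ⟨w, w', hw, hw', rfl⟩ : ∃ w w' : Fin m ⊕ Fin m → F, w ∈ W ∧ w' ∈ B.orthogonal W ∧ w + w' = y := by
      have : y ∈ W ⊔ B.orthogonal W := by rw [hC.sup_eq_top]; trivial
      obtain ⟨w, hw, w', hw', h⟩ := Submodule.mem_sup.1 this
      exact ⟨w, w', hw, hw', h⟩
    have h1 : sympForm m F x.1 w' = 0 := hx ⟨w', hw'⟩
    have h2 : sympForm m F w x.1 = 0 := x.2 w hw
    have h3 : sympForm m F x.1 w = 0 := hRefl _ _ h2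
    have h4 : sympForm m F x.1 (w + w') = B x.1 (w + w') := rfl
    rw [h4, map_add]
    show sympForm m F x.1 w + sympForm m F x.1 w' = 0
    rw [h1, h3, add_zero]
  have hdim : Module.finrank F W + Module.finrank F (B.orthogonal W) = 2 * m := by
    rw [Submodule.finrank_add_eq_of_isCompl hC]
    simp
    ring
  have hdim' : Module.finrank F (B.orthogonal W) = 2 * (m - k) := by omega
  obtain ⟨ψ₁, h₁⟩ := Cfsg.Agent.Lib.Witt.SympModel.exists_model (B.restrict W) (fun x => hAlt x.1) hRes k hWk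
  obtain ⟨ψ₂, h₂⟩ := Cfsg.Agent.Lib.Witt.SympModel.exists_model (B.restrict (B.orthogonal W))
    (fun x => hAlt x.1) hRes' (m - k) hdim'
  let Θ : ((Fin k ⊕ Fin k → F) × (Fin (m - k) ⊕ Fin (m - k) → F)) ≃ₗ[F] (Fin m ⊕ Fin m → F) :=
    (ψ₁.prodCongr ψ₂).trans (Submodule.prodEquivOfIsCompl W (B.orthogonal W) hC)
  have hΘv : ∀ a b, Θ (a, b) = (ψ₁ a : Fin m ⊕ Fin m → F) + (ψ₂ b : Fin m ⊕ Fin m → F) := fun a b => rfl
  have hΘ : ∀ a b a' b', sympForm m F (Θ (a, b)) (Θ (a', b')) = sympForm k F a a' + sympForm (m - k) F b b' := by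
    intro a b a' b'
    rw [hΘv, hΘv, ← h₁, ← h₂]
    have e1 : sympForm m F ((ψ₁ a : Fin m ⊕ Fin m → F) + (ψ₂ b : Fin m ⊕ Fin m → F))
        ((ψ₁ a' : Fin m ⊕ Fin m → F) + (ψ₂ b' : Fin m ⊕ Fin m → F))
        = B ((ψ₁ a : Fin m ⊕ Fin m → F) + (ψ₂ b : Fin m ⊕ Fin m → F))
        ((ψ₁ a' : Fin m ⊕ Fin m → F) + (ψ₂ b' : Fin m ⊕ Fin m → F)) := rfl
    rw [e1]
    have c1 : B (ψ₁ a : Fin m ⊕ Fin m → F) (ψ₂ b' : Fin m ⊕ Fin m → F) = 0 := (ψ₂ b').2 _ (ψ₁ a).2
    have c2 : B (ψ₂ b : Fin m ⊕ Fin m → F) (ψ₁ a' : Fin m ⊕ Fin m → F) = 0 := hRefl _ _ ((ψ₂ b).2 _ (ψ₁ a').2)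
    simp only [map_add, LinearMap.add_apply, c1, c2, add_zero, zero_add]
    rfl
  refine nonempty_equiv Θ hΘ W ?_
  intro x
  constructor
  · intro hx
    refine ⟨ψ₁.symm ⟨x, hx⟩, ?_⟩
    rw [hΘv]
    simp
  · rintro ⟨a, rfl⟩
    rw [hΘv]
    simp

end Cfsg.Agent.Lib.Witt.SympStab
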