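import Mathlib
import Cfsg.Agent.Lib.Orth.Closure

set_option autoImplicit false

namespace Cfsg.Agent.Lib.Witt.SOIndex

open Matrix Cfsg QuadraticMap
open Cfsg.Agent.Lib.Orth.Closure
open scoped commutatorElement

theorem commutator_le_of_generators {G : Type*} [Group G] (R : Set G)
    (hR : Subgroup.closure R = ⊤) (P : Subgroup G) [P.Normal]
    (h : ∀ a ∈ R, ∀ b ∈ R, ⁅a, b⁆ ∈ P) : commutator G ≤ P := by
  let φ := QuotientGroup.mk' P
  have h1 : ∀ a ∈ R, ∀ b ∈ R, φ a * φ b = φ b * φ a := by
    intro a ha b hb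
    have h2 : φ ⁅a, b⁆ = 1 := (QuotientGroup.eq_one_iff _).2 (h a ha b hb)
    rw [map_commutatorElement, commutatorElement_eq_one_iff_mul_comm] at h2
    exact h2
  have h2 : ∀ b ∈ R, ∀ a : G, φ a * φ b = φ b * φ a := by
    intro b hb a
    have hle : Subgroup.closure R ≤ (Subgroup.centralizer {φ b}).comap φ := by
      rw [Subgroup.closure_le]
      intro a ha
      show φ a ∈ Subgroup.centralizer {φ b}
      rw [Subgroup.mem_centralizer_singleton_iff]
      exact h1 a ha b hb
    have : a ∈ (Subgroup.centralizer {φ b}).comap φ := hle (by rw [hR]; trivial)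
    have h3 : φ a ∈ Subgroup.centralizer {φ b} := this
    rwa [Subgroup.mem_centralizer_singleton_iff] at h3
  have h3 : ∀ a b : G, φ a * φ b = φ b * φ a := by
    intro a b
    have hle : Subgroup.closure R ≤ (Subgroup.centralizer {φ a}).comap φ := by
      rw [Subgroup.closure_le]
      intro c hc
      show φ c ∈ Subgroup.centralizer {φ a}
      rw [Subgroup.mem_centralizer_singleton_iff]
      exact (h2 c hc a).symm
    have : b ∈ (Subgroup.centralizer {φ a}).comap φ := hle (by rw [hR]; trivial)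
    have h4 : φ b ∈ Subgroup.centralizer {φ a} := this
    rw [Subgroup.mem_centralizer_singleton_iff] at h4
    exact h4.symm
  rw [commutator_def, Subgroup.commutator_le]
  intro a _ b _
  rw [← QuotientGroup.eq_one_iff]
  show φ ⁅a, b⁆ = 1
  rw [map_commutatorElement, commutatorElement_eq_one_iff_mul_comm]
  exact h3 a b

variable {F : Type*} [Field F] [Fintype F] {n : ℕ} (Q : QuadraticForm F (Fin n → F))

theorem det_val_eq (hQ : (polarBilin Q).Nondegenerate) (h : Fintype.card F ≠ 2 ∨ Fintype.card (Fin n) ≠ 4)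
    (g : isometryGroup F ⇑Q) :
    ((g : GL (Fin n) F) : Matrix (Fin n) (Fin n) F).det = 1 ∨
      ((g : GL (Fin n) F) : Matrix (Fin n) (Fin n) F).det = -1 := by
  obtain ⟨vs, hvs, rfl⟩ := exists_word Q hQ h g
  rw [word_val, det_word Q vs hvs]
  exact neg_one_pow_eq_or _ _

theorem mem_special_iff (g : isometryGroup F ⇑Q) :
    g ∈ specialIsometryGroup F ⇑Q ↔ ((g : GL (Fin n) F) : Matrix (Fin n) (Fin n) F).det = 1 := by
  unfold specialIsometryGroup
  rw [MonoidHom.mem_ker]
  constructor
  · intro h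
    have h3 := congrArg Units.val h
    simpa using h3
  · intro h
    apply Units.ext
    simpa using h

theorem index_subgroupOf (hn : 2 ≤ n) (hQ : (polarBilin Q).Nondegenerate)
    (h : Fintype.card F ≠ 2 ∨ n ≠ 4) :
    ((Omega F ⇑Q).subgroupOf (specialIsometryGroup F ⇑Q)).index = 2 := by
  have hcard : Fintype.card F ≠ 2 ∨ Fintype.card (Fin n) ≠ 4 := by simpa using h
  have hcn : 2 ≤ Fintype.card (Fin n) := by simpa using hn
  have hOmS : Omega F ⇑Q ≤ specialIsometryGroup F ⇑Q := by
    rw [Omega, commutator_def, Subgroup.commutator_le]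
    intro a _ b _
    unfold specialIsometryGroup
    rw [MonoidHom.mem_ker, map_commutatorElement, commutatorElement_eq_one_iff_mul_comm, mul_comm]
  have hrel := Subgroup.relIndex_mul_index hOmS
  have hrel' : (Omega F ⇑Q).relIndex (specialIsometryGroup F ⇑Q) =
    ((Omega F ⇑Q).subgroupOf (specialIsometryGroup F ⇑Q)).index := rfl
  rw [hrel'] at hrel
  by_cases h2 : (2 : F) = 0
  · have : CharP F 2 := CharTwo.of_one_ne_zero_of_two_eq_zero one_ne_zero h2
    have hOm := index_Omega_char_two Q hcn hQ hcard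
    have hneg : (-1 : F) = 1 := by linear_combination -h2
    have htop : specialIsometryGroup F ⇑Q = ⊤ := by
      rw [eq_top_iff]
      intro g _
      rw [mem_special_iff]
      rcases det_val_eq Q hQ hcard g with hg | hg
      · exact hg
      · rw [hg, hneg]
    have hS1 : (specialIsometryGroup F ⇑Q).index = 1 := by
      rw [htop]
      exact Subgroup.index_top
    rw [hS1, mul_one, hOm] at hrel
    exact hrel
  · have hOm := index_Omega_odd Q h2 hcn hQ
    have hne : (-1 : F) ≠ 1 := by
      intro hh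
      apply h2
      linear_combination -hh
    have : Nontrivial (Fin n → F) := by
      have : Nonempty (Fin n) := ⟨⟨0, by omega⟩⟩
      infer_instance
    obtain ⟨v, hv⟩ := exists_nonsingular Q hQ
    have hS : (specialIsometryGroup F ⇑Q).index = 2 := by
      rw [Subgroup.index_eq_two_iff]
      refine ⟨reflEl Q v, fun b => ?_⟩
      have hdet : (((b * reflEl Q v : isometryGroup F ⇑Q) : GL (Fin n) F) : Matrix (Fin n) (Fin n) F).det =
          - ((b : GL (Fin n) F) : Matrix (Fin n) (Fin n) F).det := by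
        rw [Subgroup.coe_mul, Units.val_mul, Matrix.det_mul, reflEl_val,
          Cfsg.Agent.Lib.Reflect.Basic.reflection_det Q v hv]
        ring
      rw [mem_special_iff, mem_special_iff, hdet]
      rcases det_val_eq Q hQ hcard b with hg | hg
      · rw [hg]
        right
        simp [hne]
      · rw [hg]
        left
        simp [hne]
    rw [hS, hOm] at hrel
    omega

theorem omega_le_of_index_two (hQ : (polarBilin Q).Nondegenerate)
    (h : Fintype.card F ≠ 2 ∨ n ≠ 4) (H : Subgroup ↥(specialIsometryGroup F ⇑Q))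
    (hH : H.index = 2) : (Omega F ⇑Q).subgroupOf (specialIsometryGroup F ⇑Q) ≤ H := by
  have hcard : Fintype.card F ≠ 2 ∨ Fintype.card (Fin n) ≠ 4 := by simpa using h
  let S := specialIsometryGroup F ⇑Q
  have hSn : S.Normal := MonoidHom.normal_ker _
  let H' : Subgroup (isometryGroup F ⇑Q) := H.map S.subtype
  have hcomm : commutator (isometryGroup F ⇑Q) ≤ H'.normalCore := by
    refine commutator_le_of_generators _ (closure_refl_eq_top Q hQ hcard) H'.normalCore ?_
    rintro a ⟨u, hu, ha⟩ b ⟨v, hv, hb⟩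
    have ha2 : a * a = 1 := by
      apply Subtype.ext
      apply Units.ext
      show ((a : GL (Fin n) F) : Matrix (Fin n) (Fin n) F) * ((a : GL (Fin n) F) : Matrix (Fin n) (Fin n) F) = 1
      rw [ha, Cfsg.Agent.Lib.Reflect.Basic.reflection_sq Q u hu]
    have hb2 : b * b = 1 := by
      apply Subtype.ext
      apply Units.ext
      show ((b : GL (Fin n) F) : Matrix (Fin n) (Fin n) F) * ((b : GL (Fin n) F) : Matrix (Fin n) (Fin n) F) = 1
      rw [hb, Cfsg.Agent.Lib.Reflect.Basic.reflection_sq Q v hv]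
    have hab : a * b ∈ S := by
      rw [mem_special_iff, Subgroup.coe_mul, Units.val_mul, Matrix.det_mul, ha, hb,
        Cfsg.Agent.Lib.Reflect.Basic.reflection_det Q u hu,
        Cfsg.Agent.Lib.Reflect.Basic.reflection_det Q v hv]
      ring
    show ∀ g, g * ⁅a, b⁆ * g⁻¹ ∈ H'
    intro g
    have hs : g * (a * b) * g⁻¹ ∈ S := hSn.conj_mem _ hab g
    have hsq := Subgroup.sq_mem_of_index_two hH (⟨_, hs⟩ : S)
    refine ⟨_, hsq, ?_⟩
    have hai : a⁻¹ = a := inv_eq_of_mul_eq_one_left ha2
    have hbi : b⁻¹ = b := inv_eq_of_mul_eq_one_left hb2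
    show (g * (a * b) * g⁻¹) ^ 2 = g * ⁅a, b⁆ * g⁻¹
    rw [commutatorElement_def, hai, hbi, _root_.sq]
    group
  intro x hx
  have hx1 : (x : isometryGroup F ⇑Q) ∈ Omega F ⇑Q := hx
  have hx2 := Subgroup.normalCore_le H' (hcomm hx1)
  obtain ⟨y, hy, hyx⟩ := hx2
  have : y = x := Subtype.ext hyx
  rwa [← this]

/-- The main theorem. -/
theorem existsUnique_index_two (hn : 2 ≤ n) (hQ : (polarBilin Q).Nondegenerate)
    (h : Fintype.card F ≠ 2 ∨ n ≠ 4) :
    ∃! H : Subgroup ↥(specialIsometryGroup F ⇑Q), H.index = 2 := by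
  refine ⟨_, index_subgroupOf Q hn hQ h, fun H hH => ?_⟩
  have hle := omega_le_of_index_two Q hQ h H hH
  have h1 := Subgroup.card_mul_index H
  have h2 := Subgroup.card_mul_index ((Omega F ⇑Q).subgroupOf (specialIsometryGroup F ⇑Q))
  rw [hH] at h1
  rw [index_subgroupOf Q hn hQ h] at h2
  have h3 : Nat.card ↥((Omega F ⇑Q).subgroupOf (specialIsometryGroup F ⇑Q)) = Nat.card ↥H := by omega
  exact (Subgroup.eq_of_le_of_card_ge hle (by rw [h3])).symm

end Cfsg.Agent.Lib.Witt.SOIndex
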