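/-
Splitting off a unit vector from a non-degenerate conjugate-symmetric sesquilinear form.
-/
import Mathlib

set_option autoImplicit false

namespace Cfsg.Agent.Lib.Witt.OrthStep

variable {F V : Type*} [Field F] [AddCommGroup V] [Module F V] {σ : F →+* F}
variable {B : V →ₛₗ[σ] V →ₗ[F] F}

/-- `σ`-fixed vanishing helper. -/
theorem form_flip_zero (hS : B.IsSymm) {x y : V} (h : B x y = 0) : B y x = 0 := by
  rw [← hS.eq x y, h, map_zero]

/-- The orthogonal complement of an anisotropic vector carries a non-degenerate form. -/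
theorem restrict_nondeg (hS : B.IsSymm) (hB : B.Nondegenerate) (e : V) (he : B e e ≠ 0) :
    (B.domRestrict₁₂ (LinearMap.ker (B e)) (LinearMap.ker (B e))).Nondegenerate := by
  have hdec : ∀ z : V, z - ((B e e)⁻¹ * B e z) • e ∈ LinearMap.ker (B e) := by
    intro z
    simp only [LinearMap.mem_ker, map_sub, map_smul, smul_eq_mul]
    field_simp
    ring
  constructor
  · rintro ⟨x, hx⟩ hx'
    have hxe : B x e = 0 := form_flip_zero hS hx
    apply Subtype.ext
    apply hB.1 x
    intro y
    have h1 : B x (y - ((B e e)⁻¹ * B e y) • e) = 0 := hx' ⟨_, hdec y⟩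
    simpa [hxe] using h1
  · rintro ⟨x, hx⟩ hx'
    apply Subtype.ext
    apply hB.2 x
    intro y
    have h1 : B (y - ((B e e)⁻¹ * B e y) • e) x = 0 := hx' ⟨_, hdec y⟩
    have hex : B e x = 0 := hx
    simpa [hex] using h1

/-- Extend a basis of the orthogonal complement of a unit vector. -/
theorem exists_basis_cons (e : V) (he : B e e ≠ 0) {n : ℕ}
    (b : Module.Basis (Fin n) F (LinearMap.ker (B e))) :
    ∃ b' : Module.Basis (Fin (n + 1)) F V, b' 0 = e ∧ ∀ i : Fin n, b' i.succ = (b i : V) := by
  have hli : ∀ (c : F), ∀ x ∈ LinearMap.ker (B e), c • e + x = 0 → c = 0 := by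
    intro c x hx h
    have h1 := congrArg (B e) h
    have hx' : B e x = 0 := hx
    have h2 : c * B e e = 0 := by simpa [hx'] using h1
    exact (mul_eq_zero.mp h2).resolve_right he
  have hsp : ∀ z : V, ∃ c : F, z + c • e ∈ LinearMap.ker (B e) := by
    intro z
    refine ⟨-((B e e)⁻¹ * B e z), ?_⟩
    simp only [LinearMap.mem_ker, map_add, map_smul, smul_eq_mul]
    field_simp
    ring
  refine ⟨Module.Basis.mkFinCons e b hli hsp, ?_, fun i => ?_⟩
  · simp
  · simp

theorem finrank_ker_add_one [FiniteDimensional F V] (e : V) (he : B e e ≠ 0) :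
    Module.finrank F (LinearMap.ker (B e)) + 1 = Module.finrank F V := by
  apply Module.Dual.finrank_ker_add_one_of_ne_zero
  intro h
  rw [h] at he
  exact he rfl

end Cfsg.Agent.Lib.Witt.OrthStep
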