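/-
An upper bound for the order of an elementary abelian 2-subgroup of `PSp_2m(q)`, `q` odd:
such a subgroup has order at most `2^(m+1) m`.
-/
import Mathlib
import Cfsg.Agent.Lib.Classical.SympSimple

set_option autoImplicit false

namespace Cfsg.Agent.Lib.Witt.PSpRank

section group

variable {G : Type*} [Group G]

/-- Counting: `H` is covered by `K` and `dK`. -/
theorem card_le_two_mul [Finite G] (K H : Subgroup G) (d : G)
    (h : ∀ x ∈ H, x ∈ K ∨ d⁻¹ * x ∈ K) : Nat.card H ≤ 2 * Nat.card K := by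
  classical
  let φ : H → K × Bool := fun x =>
    if hx : x.1 ∈ K then (⟨x.1, hx⟩, false) else (⟨d⁻¹ * x.1, (h x.1 x.2).resolve_left hx⟩, true)
  have hinj : Function.Injective φ := by
    intro x y hxy
    apply Subtype.ext
    by_cases hx : x.1 ∈ K <;> by_cases hy : y.1 ∈ K
    · simpa [φ, hx, hy] using hxy
    · simp [φ, hx, hy] at hxy
    · simp [φ, hx, hy] at hxy
    · simpa [φ, hx, hy] using hxy
  calc Nat.card H ≤ Nat.card (K × Bool) := Nat.card_le_card_of_injective φ hinj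
    _ = 2 * Nat.card K := by
      rw [Nat.card_prod, mul_comm]
      simp

variable (z : G) (hz : ∀ g, z * g = g * z) (hz2 : z * z = 1) (P : Subgroup G)
  (hsq : ∀ g ∈ P, g * g = 1 ∨ g * g = z)
  (hcm : ∀ g ∈ P, ∀ h ∈ P, g * h = h * g ∨ g * h = z * (h * g))
  (A₀ : Subgroup G) (hA₀ : ∀ a ∈ A₀, a * a = 1)

include hA₀ in
theorem comm_of_sq {a b : G} (ha : a ∈ A₀) (hb : b ∈ A₀) : a * b = b * a := by
  have h1 := hA₀ _ (A₀.mul_mem ha hb)
  have h2 := hA₀ _ ha
  have h3 := hA₀ _ hb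
  calc a * b = a * b * (b * a * (b * a)) := by rw [hA₀ _ (A₀.mul_mem hb ha), mul_one]
    _ = a * (b * b) * a * (b * a) := by group
    _ = b * a := by rw [h3, mul_one, h2, one_mul]

/-- The subgroup generated by `A₀` and `c`. -/
def adjoin (c : G) (hc : ∀ a ∈ A₀, c * a = a * c) (hc2 : c * c = 1) : Subgroup G where
  carrier := {x | x ∈ A₀ ∨ ∃ a ∈ A₀, x = a * c}
  mul_mem' := by
    rintro x y (hx | ⟨a, ha, rfl⟩) (hy | ⟨b, hb, rfl⟩)
    · exact Or.inl (A₀.mul_mem hx hy)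
    · exact Or.inr ⟨x * b, A₀.mul_mem hx hb, by group⟩
    · refine Or.inr ⟨a * y, A₀.mul_mem ha hy, ?_⟩
      rw [mul_assoc, mul_assoc, hc y hy]
    · refine Or.inl ?_
      have : a * c * (b * c) = a * b := by
        rw [mul_assoc, ← mul_assoc c, hc b hb, mul_assoc b, hc2, mul_one]
      rw [this]
      exact A₀.mul_mem ha hb
  one_mem' := Or.inl A₀.one_mem
  inv_mem' := by
    rintro x (hx | ⟨a, ha, rfl⟩)
    · exact Or.inl (A₀.inv_mem hx)
    · refine Or.inr ⟨a⁻¹, A₀.inv_mem ha, ?_⟩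
      have hci : c⁻¹ = c := inv_eq_of_mul_eq_one_left hc2
      rw [mul_inv_rev, hci, hc _ (A₀.inv_mem ha)]

include hz hz2 hsq hcm hA₀ in
/-- `|C_P(A₀) : A₀| ≤ 4` when `A₀` is maximal. -/
theorem card_C_le [Finite G] (hA₀P : A₀ ≤ P) (hzA : z ∈ A₀)
    (hmax : ∀ B : Subgroup G, B ≤ P → z ∈ B → (∀ b ∈ B, b * b = 1) → A₀ ≤ B → B ≤ A₀) :
    Nat.card ↥(P ⊓ Subgroup.centralizer (A₀ : Set G)) ≤ 4 * Nat.card A₀ := by
  classical
  set C := P ⊓ Subgroup.centralizer (A₀ : Set G) with hCdef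
  have hCcomm : ∀ c ∈ C, ∀ a ∈ A₀, c * a = a * c := by
    intro c hc a ha
    have := (Subgroup.mem_centralizer_iff.1 hc.2) a ha
    exact this.symm
  -- square one implies in `A₀`
  have hsq1 : ∀ c ∈ C, c * c = 1 → c ∈ A₀ := by
    intro c hc hc2
    have hcomm := hCcomm c hc
    have hle : adjoin A₀ c hcomm hc2 ≤ P := by
      rintro x (hx | ⟨a, ha, rfl⟩)
      · exact hA₀P hx
      · exact P.mul_mem (hA₀P ha) hc.1
    have hsq' : ∀ b ∈ adjoin A₀ c hcomm hc2, b * b = 1 := by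
      rintro x (hx | ⟨a, ha, rfl⟩)
      · exact hA₀ x hx
      · rw [mul_assoc, ← mul_assoc c, hcomm a ha, mul_assoc a, hc2, mul_one]
        exact hA₀ a ha
    have hm := hmax _ hle (Or.inl hzA) hsq' (fun x hx => Or.inl hx)
    apply hm
    exact Or.inr ⟨1, A₀.one_mem, by simp⟩
  by_cases hc : ∃ c ∈ C, c ∉ A₀
  · obtain ⟨c, hcC, hcA⟩ := hc
    have hcz : c * c = z := by
      rcases hsq c hcC.1 with h | h
      · exact absurd (hsq1 c hcC h) hcA
      · exact h
    let C₁ : Subgroup G := C ⊓ Subgroup.centralizer {c}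
    have h1 : Nat.card C₁ ≤ 2 * Nat.card A₀ := by
      apply card_le_two_mul A₀ C₁ c
      intro x hx
      by_cases hxA : x ∈ A₀
      · exact Or.inl hxA
      · right
        have hxc : x * c = c * x := Subgroup.mem_centralizer_singleton_iff.1 hx.2
        have hxz : x * x = z := by
          rcases hsq x hx.1.1 with h | h
          · exact absurd (hsq1 x hx.1 h) hxA
          · exact h
        have h2 : (x * c) * (x * c) = 1 := by
          calc (x * c) * (x * c) = x * (c * x) * c := by group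
            _ = x * (x * c) * c := by rw [hxc]
            _ = (x * x) * (c * c) := by group
            _ = 1 := by rw [hxz, hcz, hz2]
        have h3 : x * c ∈ A₀ := hsq1 _ (C.mul_mem hx.1 hcC) h2
        have h4 : c⁻¹ * x = (x * c) * z := by
          have hci : c⁻¹ = c * z := by
            apply inv_eq_of_mul_eq_one_right
            rw [← mul_assoc, hcz, hz2]
          rw [hci, mul_assoc, hz, ← mul_assoc c, ← hxc, mul_assoc]
        rw [h4]
        exact A₀.mul_mem h3 hzA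
    have h2 : Nat.card C ≤ 2 * Nat.card C₁ := by
      by_cases hd : ∃ d ∈ C, d ∉ C₁
      · obtain ⟨d, hdC, hdC₁⟩ := hd
        have hdc : d * c = z * (c * d) := by
          rcases hcm d hdC.1 c hcC.1 with h | h
          · exact absurd ⟨hdC, Subgroup.mem_centralizer_singleton_iff.2 h⟩ hdC₁
          · exact h
        apply card_le_two_mul C₁ C d
        intro x hx
        by_cases hxC₁ : x ∈ C₁
        · exact Or.inl hxC₁
        · right
          have hxc : x * c = z * (c * x) := by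
            rcases hcm x hx.1 c hcC.1 with h | h
            · exact absurd ⟨hx, Subgroup.mem_centralizer_singleton_iff.2 h⟩ hxC₁
            · exact h
          refine ⟨C.mul_mem (C.inv_mem hdC) hx, ?_⟩
          show d⁻¹ * x ∈ Subgroup.centralizer {c}
          rw [Subgroup.mem_centralizer_singleton_iff]
          have hd' : c * d⁻¹ = z * (d⁻¹ * c) := by
            calc c * d⁻¹ = d⁻¹ * (d * c) * d⁻¹ := by group
              _ = d⁻¹ * (z * (c * d)) * d⁻¹ := by rw [hdc]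
              _ = d⁻¹ * z * c := by group
              _ = z * (d⁻¹ * c) := by rw [← hz]; group
          calc d⁻¹ * x * c = d⁻¹ * (x * c) := by group
            _ = d⁻¹ * (z * (c * x)) := by rw [hxc]
            _ = (d⁻¹ * z) * c * x := by group
            _ = z * (d⁻¹ * c) * x := by rw [← hz]; group
            _ = c * d⁻¹ * x := by rw [hd']
            _ = c * (d⁻¹ * x) := by group
      · push Not at hd
        have hle : C ≤ C₁ := fun x hx => hd x hx
        have := Subgroup.card_le_of_le hle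
        omega
    omega
  · push Not at hc
    have hle : C ≤ A₀ := fun x hx => hc x hx
    have := Subgroup.card_le_of_le hle
    omega

end group

section fibers

/-- Counting along a map whose fibres lie in cosets. -/
theorem card_le_mul_of_fibers {G X : Type*} [Group G] [Finite G] [Finite X] (P C : Subgroup G)
    (φ : P → X) (h : ∀ g g' : P, φ g = φ g' → g'.1 * g.1⁻¹ ∈ C) :
    Nat.card P ≤ Nat.card X * Nat.card C := by
  classical
  let s : X → P := fun x => if hx : ∃ g, φ g = x then hx.choose else 1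
  have hs : ∀ g, φ (s (φ g)) = φ g := by
    intro g
    have hx : ∃ g', φ g' = φ g := ⟨g, rfl⟩
    simp only [s, dif_pos hx]
    exact hx.choose_spec
  let ψ : P → X × C := fun g => (φ g, ⟨g.1 * (s (φ g)).1⁻¹, h _ _ (hs g)⟩)
  have hinj : Function.Injective ψ := by
    intro g g' hgg
    have h1 : φ g = φ g' := congrArg Prod.fst hgg
    have h2 : g.1 * (s (φ g)).1⁻¹ = g'.1 * (s (φ g')).1⁻¹ :=
      congrArg (fun y : X × C => (y.2 : G)) hgg
    rw [h1] at h2
    exact Subtype.ext (mul_right_cancel h2)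
  calc Nat.card P ≤ Nat.card (X × C) := Nat.card_le_card_of_injective ψ hinj
    _ = _ := Nat.card_prod _ _

end fibers

section linear

open Matrix Cfsg Module
open Cfsg.Agent.Lib.Classical.SympForm Cfsg.Agent.Lib.Classical.SympSimple

variable {F : Type*} [Field F] {m : ℕ} (A₀ : Subgroup (Matrix.symplecticGroup (Fin m) F))

/-- The operator of an element. -/
noncomputable def op (a : A₀) : Module.End F (Fin m ⊕ Fin m → F) := Matrix.mulVecLin a.1.1

/-- The joint eigenspace. -/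
noncomputable def Vχ (χ : A₀ → F) : Submodule F (Fin m ⊕ Fin m → F) :=
  ⨅ a, Module.End.eigenspace (op A₀ a) (χ a)

variable {A₀}

theorem mem_Vχ {χ : A₀ → F} {v : Fin m ⊕ Fin m → F} :
    v ∈ Vχ A₀ χ ↔ ∀ a : A₀, a.1.1 *ᵥ v = χ a • v := by
  unfold Vχ
  simp only [Submodule.mem_iInf, Module.End.mem_eigenspace_iff]
  rfl

theorem mul_self_mulVec (hA₀ : ∀ a ∈ A₀, a * a = 1) (a : A₀) (v : Fin m ⊕ Fin m → F) :
    a.1.1 *ᵥ (a.1.1 *ᵥ v) = v := by
  rw [Matrix.mulVec_mulVec]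
  have h1 : a.1 * a.1 = 1 := hA₀ _ a.2
  have h2 : a.1.1 * a.1.1 = 1 := congrArg Subtype.val h1
  rw [h2, Matrix.one_mulVec]

theorem op_comm (hA₀ : ∀ a ∈ A₀, a * a = 1) (a b : A₀) : Commute (op A₀ a) (op A₀ b) := by
  have h1 := comm_of_sq A₀ hA₀ a.2 b.2
  have h2 : a.1.1 * b.1.1 = b.1.1 * a.1.1 := congrArg Subtype.val h1
  show op A₀ a * op A₀ b = op A₀ b * op A₀ a
  apply LinearMap.ext
  intro x
  show a.1.1 *ᵥ (b.1.1 *ᵥ x) = b.1.1 *ᵥ (a.1.1 *ᵥ x)
  rw [Matrix.mulVec_mulVec, Matrix.mulVec_mulVec, h2]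

theorem iSup_eigenspace_eq_top (h2 : (2 : F) ≠ 0) (hA₀ : ∀ a ∈ A₀, a * a = 1) (a : A₀) :
    ⨆ μ, Module.End.eigenspace (op A₀ a) μ = ⊤ := by
  rw [eq_top_iff]
  intro v _
  have h3 : v = (2 : F)⁻¹ • (v + a.1.1 *ᵥ v) + (2 : F)⁻¹ • (v - a.1.1 *ᵥ v) := by
    rw [← smul_add, add_add_sub_cancel, ← two_smul F v, smul_smul, inv_mul_cancel₀ h2, one_smul]
  rw [h3]
  apply Submodule.add_mem
  · apply Submodule.smul_mem
    apply Submodule.mem_iSup_of_mem (1 : F)
    rw [Module.End.mem_eigenspace_iff]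
    show a.1.1 *ᵥ (v + a.1.1 *ᵥ v) = _
    rw [Matrix.mulVec_add, mul_self_mulVec hA₀, one_smul, add_comm]
  · apply Submodule.smul_mem
    apply Submodule.mem_iSup_of_mem (-1 : F)
    rw [Module.End.mem_eigenspace_iff]
    show a.1.1 *ᵥ (v - a.1.1 *ᵥ v) = _
    rw [Matrix.mulVec_sub, mul_self_mulVec hA₀, neg_smul, one_smul, neg_sub]

theorem maxGen_eq (h2 : (2 : F) ≠ 0) (hA₀ : ∀ a ∈ A₀, a * a = 1) (a : A₀) (μ : F) :
    Module.End.maxGenEigenspace (op A₀ a) μ = Module.End.eigenspace (op A₀ a) μ := by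
  have hp : Squarefree (Polynomial.X ^ 2 - Polynomial.C (1 : F)) :=
    (Polynomial.separable_X_pow_sub_C (1 : F) (by exact_mod_cast h2) one_ne_zero).squarefree
  have hse : (op A₀ a).IsSemisimple := by
    apply Module.End.isSemisimple_of_squarefree_aeval_eq_zero hp
    have h3 : op A₀ a * op A₀ a = 1 := LinearMap.ext (mul_self_mulVec hA₀ a)
    rw [map_sub, map_pow, Polynomial.aeval_X, Polynomial.aeval_C, map_one, sq, h3, sub_self]
  exact (Module.End.isFinitelySemisimple_iff_isSemisimple.2 hse).maxGenEigenspace_eq_eigenspace μ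

theorem iSup_Vχ (h2 : (2 : F) ≠ 0) (hA₀ : ∀ a ∈ A₀, a * a = 1) [FiniteDimensional F (Fin m ⊕ Fin m → F)] :
    ⨆ χ, Vχ A₀ χ = ⊤ := by
  have h1 := Module.End.iSup_iInf_maxGenEigenspace_eq_top_of_iSup_maxGenEigenspace_eq_top_of_commute
    (op A₀) (fun a b _ => op_comm hA₀ a b) (fun a => by
      simp only [maxGen_eq h2 hA₀]
      exact iSup_eigenspace_eq_top h2 hA₀ a)
  simp only [maxGen_eq h2 hA₀] at h1
  exact h1

theorem indep_Vχ (h2 : (2 : F) ≠ 0) (hA₀ : ∀ a ∈ A₀, a * a = 1) : iSupIndep (Vχ A₀) := by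
  have h1 := Module.End.independent_iInf_maxGenEigenspace_of_forall_mapsTo (op A₀) (fun a b φ =>
    Module.End.mapsTo_maxGenEigenspace_of_comm (op_comm hA₀ a b).symm φ)
  simp only [maxGen_eq h2 hA₀] at h1
  exact h1

/-- The characters that occur. -/
abbrev XX (A₀ : Subgroup (Matrix.symplecticGroup (Fin m) F)) : Set (A₀ → F) := {χ | Vχ A₀ χ ≠ ⊥}

theorem X_val (hA₀ : ∀ a ∈ A₀, a * a = 1) {χ : A₀ → F} (hχ : χ ∈ XX A₀) (a : A₀) :
    χ a = 1 ∨ χ a = -1 := by
  obtain ⟨v, hv, hv0⟩ := Submodule.exists_mem_ne_zero_of_ne_bot hχ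
  have h1 := mem_Vχ.1 hv a
  have h2 := mul_self_mulVec hA₀ a v
  rw [h1, Matrix.mulVec_smul, h1, smul_smul] at h2
  have h3 : (χ a * χ a - 1) • v = 0 := by rw [sub_smul, h2, one_smul, sub_self]
  have h4 := (smul_eq_zero.1 h3).resolve_right hv0
  have : (χ a - 1) * (χ a + 1) = 0 := by linear_combination h4
  rcases mul_eq_zero.1 this with h | h
  · left; linear_combination h
  · right; linear_combination h

theorem sympForm_smul_smul (c d : F) (v w : Fin m ⊕ Fin m → F) :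
    sympForm m F (c • v) (d • w) = c * d * sympForm m F v w := by
  have h : sympForm m F (c • v) (d • w) = sympBilin m F (c • v) (d • w) := rfl
  rw [h]
  simp only [map_smul, LinearMap.smul_apply, sympBilin_apply, smul_eq_mul]
  ring

theorem orth_of_ne (h2 : (2 : F) ≠ 0) (hA₀ : ∀ a ∈ A₀, a * a = 1) {χ ψ : A₀ → F} (hχ : χ ∈ XX A₀)
    (hψ : ψ ∈ XX A₀) (hne : χ ≠ ψ) {v w : Fin m ⊕ Fin m → F} (hv : v ∈ Vχ A₀ χ) (hw : w ∈ Vχ A₀ ψ) :
    sympForm m F v w = 0 := by
  obtain ⟨a, ha⟩ := Function.ne_iff.1 hne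
  have h1 := (mem_symplecticGroup_iff _).1 a.1.2 v w
  rw [mem_Vχ.1 hv a, mem_Vχ.1 hw a, sympForm_smul_smul] at h1
  have h3 : χ a * ψ a = -1 := by
    rcases X_val hA₀ hχ a with h | h <;> rcases X_val hA₀ hψ a with h' | h'
    · rw [h, h'] at ha
      exact absurd rfl ha
    · rw [h, h']; ring
    · rw [h, h']; ring
    · rw [h, h'] at ha
      exact absurd rfl ha
  rw [h3] at h1
  have h4 : (2 : F) * sympForm m F v w = 0 := by linear_combination -h1
  exact (mul_eq_zero.1 h4).resolve_left h2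

theorem span_isotropic {ι : Type*} (v : ι → Fin m ⊕ Fin m → F)
    (h : ∀ i j, sympForm m F (v i) (v j) = 0) :
    ∀ x ∈ Submodule.span F (Set.range v), ∀ y ∈ Submodule.span F (Set.range v),
      sympBilin m F x y = 0 := by
  have h1 : ∀ x ∈ Submodule.span F (Set.range v), ∀ j, sympBilin m F x (v j) = 0 := by
    intro x hx j
    induction hx using Submodule.span_induction with
    | mem y hy =>
      obtain ⟨i, rfl⟩ := hy
      exact h i j
    | zero => simp
    | add a b _ _ ha hb => simp [ha, hb]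
    | smul c a _ ha => simp [ha]
  intro x hx y hy
  induction hy using Submodule.span_induction with
  | mem z hz =>
    obtain ⟨j, rfl⟩ := hz
    exact h1 x hx j
  | zero => exact map_zero _
  | add a b _ _ ha hb => rw [map_add, ha, hb, add_zero]
  | smul c a _ ha => rw [map_smul, ha, smul_zero]

theorem card_X_le [Fintype F] (h2 : (2 : F) ≠ 0) (hA₀ : ∀ a ∈ A₀, a * a = 1) :
    Nat.card (XX A₀) ≤ m := by
  classical
  have hne : ∀ χ : XX A₀, ∃ v, v ∈ Vχ A₀ χ.1 ∧ v ≠ 0 := fun χ =>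
    Submodule.exists_mem_ne_zero_of_ne_bot χ.2
  choose v hv hv0 using hne
  have hLI : LinearIndependent F v :=
    iSupIndep.linearIndependent (fun χ : XX A₀ => Vχ A₀ χ.1)
      ((indep_Vχ h2 hA₀).comp Subtype.val_injective) hv hv0
  have hiso : ∀ χ ψ : XX A₀, sympForm m F (v χ) (v ψ) = 0 := by
    intro χ ψ
    by_cases h : χ = ψ
    · subst h
      exact sympBilin_isAlt (v χ)
    · exact orth_of_ne h2 hA₀ χ.2 ψ.2 (fun h' => h (Subtype.ext h')) (hv χ) (hv ψ)
  set W := Submodule.span F (Set.range v) with hW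
  have hle : W ≤ (sympBilin m F).orthogonal W := by
    intro x hx y hy
    exact span_isotropic v hiso y hy x hx
  have h3 := Submodule.finrank_mono hle
  rw [LinearMap.BilinForm.finrank_orthogonal sympBilin_nondegenerate] at h3
  have : Fintype (XX A₀) := Fintype.ofFinite _
  have h4 : Module.finrank F W = Fintype.card (XX A₀) := finrank_span_eq_card hLI
  rw [h4] at h3
  rw [Nat.card_eq_fintype_card]
  have h5 : Module.finrank F (Fin m ⊕ Fin m → F) = 2 * m := by
    simp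
    ring
  omega

theorem card_A₀_le [Fintype F] (h2 : (2 : F) ≠ 0) (hA₀ : ∀ a ∈ A₀, a * a = 1) :
    Nat.card A₀ ≤ 2 ^ Nat.card (XX A₀) := by
  classical
  let Φ : A₀ → (XX A₀ → Bool) := fun a χ => decide (χ.1 a = 1)
  have hinj : Function.Injective Φ := by
    intro a b hab
    have h3 : ∀ χ : XX A₀, χ.1 a = χ.1 b := by
      intro χ
      have h4 := congrFun hab χ
      simp only [Φ, decide_eq_decide] at h4
      rcases X_val hA₀ χ.2 a with h | h
      · rw [h, h4.1 h]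
      · rcases X_val hA₀ χ.2 b with h' | h'
        · rw [h4.2 h'] at h
          exact absurd h (by
            intro h5
            apply h2
            linear_combination h5)
        · rw [h, h']
    have h5 : ⨆ χ, Vχ A₀ χ ≤ LinearMap.eqLocus (op A₀ a) (op A₀ b) := by
      apply iSup_le
      intro χ v hv
      by_cases hχ : χ ∈ XX A₀
      · show a.1.1 *ᵥ v = b.1.1 *ᵥ v
        rw [mem_Vχ.1 hv a, mem_Vχ.1 hv b, show χ a = χ b from h3 ⟨χ, hχ⟩]
      · have h6 : Vχ A₀ χ = ⊥ := by simpa using hχ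
        rw [h6, Submodule.mem_bot] at hv
        rw [hv]
        exact Submodule.zero_mem _
    rw [iSup_Vχ h2 hA₀] at h5
    apply Subtype.ext
    apply Subtype.ext
    apply Matrix.mulVec_injective
    funext v
    exact h5 (Submodule.mem_top (x := v))
  calc Nat.card A₀ ≤ Nat.card (XX A₀ → Bool) := Nat.card_le_card_of_injective Φ hinj
    _ = _ := by
      rw [Nat.card_fun]
      simp

theorem gp_inv_mulVec (g : Matrix.symplecticGroup (Fin m) F) (x : Fin m ⊕ Fin m → F) :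
    (g⁻¹).1 *ᵥ (g.1 *ᵥ x) = x := by
  rw [Matrix.mulVec_mulVec, ← Submonoid.coe_mul, inv_mul_cancel]
  simp

/-- The orbit bound. -/
theorem card_P_le [Fintype F] (h2 : (2 : F) ≠ 0) (hA₀ : ∀ a ∈ A₀, a * a = 1)
    (hzA : negOne m F ∈ A₀) (P : Subgroup (Matrix.symplecticGroup (Fin m) F))
    (hcm : ∀ g ∈ P, ∀ h ∈ P, g * h = h * g ∨ g * h = negOne m F * (h * g))
    (hAP : A₀ ≤ P) (hz : ∀ g : Matrix.symplecticGroup (Fin m) F, negOne m F * g = g * negOne m F)
    (χ₀ : A₀ → F) (hχ₀ : χ₀ ∈ XX A₀) :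
    Nat.card P ≤ Nat.card (XX A₀) * Nat.card ↥(P ⊓ Subgroup.centralizer (A₀ : Set (Matrix.symplecticGroup (Fin m) F))) := by
  classical
  obtain ⟨v₀, hv₀, hv₀0⟩ := Submodule.exists_mem_ne_zero_of_ne_bot hχ₀
  have hconj : ∀ g ∈ P, ∀ a ∈ A₀, g⁻¹ * a * g = a ∨ g⁻¹ * a * g = negOne m F * a := by
    intro g hg a ha
    rcases hcm a (hAP ha) g hg with h | h
    · left
      rw [mul_assoc, h]
      group
    · right
      rw [mul_assoc, h, hz]
      simp only [mul_assoc, inv_mul_cancel_left]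
      rw [hz]
  have hconj' : ∀ g ∈ P, ∀ a ∈ A₀, g⁻¹ * a * g ∈ A₀ := by
    intro g hg a ha
    rcases hconj g hg a ha with h | h
    · rw [h]; exact ha
    · rw [h]; exact A₀.mul_mem hzA ha
  let χg : P → A₀ → F := fun g a => χ₀ ⟨g.1⁻¹ * a.1 * g.1, hconj' g.1 g.2 a.1 a.2⟩
  have hmem : ∀ g : P, g.1.1 *ᵥ v₀ ∈ Vχ A₀ (χg g) := by
    intro g
    rw [mem_Vχ]
    intro a
    have h1 := mem_Vχ.1 hv₀ ⟨g.1⁻¹ * a.1 * g.1, hconj' g.1 g.2 a.1 a.2⟩
    have h3 : g.1 * (g.1⁻¹ * a.1 * g.1) = a.1 * g.1 := by group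
    have h4 : g.1.1 * (g.1⁻¹ * a.1 * g.1).1 = a.1.1 * g.1.1 := congrArg Subtype.val h3
    show a.1.1 *ᵥ (g.1.1 *ᵥ v₀) = χ₀ ⟨g.1⁻¹ * a.1 * g.1, hconj' g.1 g.2 a.1 a.2⟩ • (g.1.1 *ᵥ v₀)
    rw [Matrix.mulVec_mulVec, ← h4, ← Matrix.mulVec_mulVec, ← Matrix.mulVec_smul]
    congr 1
  have hne0 : ∀ g : P, g.1.1 *ᵥ v₀ ≠ 0 := by
    intro g h0
    apply hv₀0
    rw [← gp_inv_mulVec g.1 v₀, h0, Matrix.mulVec_zero]
  let φ : P → XX A₀ := fun g => ⟨χg g, fun h0 => hne0 g (by
    have := hmem g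
    rw [h0, Submodule.mem_bot] at this
    exact this)⟩
  apply card_le_mul_of_fibers P _ φ
  intro g g' hgg
  refine ⟨P.mul_mem g'.2 (P.inv_mem g.2), ?_⟩
  show g'.1 * g.1⁻¹ ∈ Subgroup.centralizer (A₀ : Set (Matrix.symplecticGroup (Fin m) F))
  rw [Subgroup.mem_centralizer_iff]
  intro a ha
  have hval : ∀ b : A₀, χ₀ ⟨negOne m F * b.1, A₀.mul_mem hzA b.2⟩ = - χ₀ b := by
    intro b
    have h1 := mem_Vχ.1 hv₀ ⟨negOne m F * b.1, A₀.mul_mem hzA b.2⟩
    have h3 := mem_Vχ.1 hv₀ b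
    have h4 : (negOne m F * b.1).1 *ᵥ v₀ = - (b.1.1 *ᵥ v₀) := by
      show (-1 * b.1.1) *ᵥ v₀ = _
      rw [neg_one_mul, Matrix.neg_mulVec]
    have h5 : (χ₀ ⟨negOne m F * b.1, A₀.mul_mem hzA b.2⟩ + χ₀ b) • v₀ = 0 := by
      rw [add_smul, ← h1, ← h3]
      show (negOne m F * b.1).1 *ᵥ v₀ + _ = 0
      rw [h4, neg_add_cancel]
    have h6 := (smul_eq_zero.1 h5).resolve_right hv₀0
    linear_combination h6
  have hnz : χ₀ ⟨a, ha⟩ ≠ 0 := by
    rcases X_val hA₀ hχ₀ ⟨a, ha⟩ with h | h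
    · rw [h]; exact one_ne_zero
    · rw [h]; exact neg_ne_zero.2 one_ne_zero
  have hne2 : χ₀ ⟨a, ha⟩ ≠ - χ₀ ⟨a, ha⟩ := by
    intro h
    have : (2 : F) * χ₀ ⟨a, ha⟩ = 0 := by linear_combination h
    exact (mul_ne_zero h2 hnz) this
  have heq : g.1⁻¹ * a * g.1 = g'.1⁻¹ * a * g'.1 := by
    have h1 : χg g ⟨a, ha⟩ = χg g' ⟨a, ha⟩ := congrFun (congrArg Subtype.val hgg) ⟨a, ha⟩
    have e1 : χg g ⟨a, ha⟩ = χ₀ ⟨g.1⁻¹ * a * g.1, hconj' g.1 g.2 a ha⟩ := rfl
    have e2 : χg g' ⟨a, ha⟩ = χ₀ ⟨g'.1⁻¹ * a * g'.1, hconj' g'.1 g'.2 a ha⟩ := rfl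
    rw [e1, e2] at h1
    rcases hconj g.1 g.2 a ha with h | h <;> rcases hconj g'.1 g'.2 a ha with h' | h'
    · rw [h, h']
    · exfalso
      have e3 : χ₀ ⟨g.1⁻¹ * a * g.1, hconj' g.1 g.2 a ha⟩ = χ₀ ⟨a, ha⟩ := by
        congr 1
        exact Subtype.ext h
      have e4 : χ₀ ⟨g'.1⁻¹ * a * g'.1, hconj' g'.1 g'.2 a ha⟩ = - χ₀ ⟨a, ha⟩ := by
        rw [← hval ⟨a, ha⟩]
        congr 1
        exact Subtype.ext h'
      rw [e3, e4] at h1
      exact hne2 h1
    · exfalso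
      have e3 : χ₀ ⟨g'.1⁻¹ * a * g'.1, hconj' g'.1 g'.2 a ha⟩ = χ₀ ⟨a, ha⟩ := by
        congr 1
        exact Subtype.ext h'
      have e4 : χ₀ ⟨g.1⁻¹ * a * g.1, hconj' g.1 g.2 a ha⟩ = - χ₀ ⟨a, ha⟩ := by
        rw [← hval ⟨a, ha⟩]
        congr 1
        exact Subtype.ext h
      rw [e3, e4] at h1
      exact hne2 h1.symm
    · rw [h, h']
  calc a * (g'.1 * g.1⁻¹) = g'.1 * (g'.1⁻¹ * a * g'.1) * g.1⁻¹ := by group
    _ = g'.1 * (g.1⁻¹ * a * g.1) * g.1⁻¹ := by rw [heq]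
    _ = g'.1 * g.1⁻¹ * a := by group

/-- Elementary abelian `2`-subgroups of `PSp_2m(q)`, `q` odd, have order at most `2^(m+1) m`. -/
theorem card_elemAb_le [Fintype F] (hodd : Odd (Fintype.card F)) (hm : 1 ≤ m)
    (E : Subgroup (Cfsg.PSp m F)) (hE : ∀ x ∈ E, x * x = 1) : Nat.card E ≤ 2 ^ (m + 1) * m := by
  classical
  have h2 : (2 : F) ≠ 0 := by
    intro h
    have := two_eq_zero_iff_even_card.1 h
    exact (Nat.not_even_iff_odd.2 hodd) this
  set z := negOne m F with hzdef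
  let Z := Subgroup.center (Matrix.symplecticGroup (Fin m) F)
  let π := QuotientGroup.mk' Z
  have hZ : ∀ x, x ∈ Z ↔ x = 1 ∨ x = z := fun x => mem_center_symplecticGroup_iff hm x
  have hzZ : z ∈ Z := (hZ z).2 (Or.inr rfl)
  have hzc : ∀ g, z * g = g * z := fun g => (Subgroup.mem_center_iff.1 hzZ g).symm
  have hzz : z * z = 1 := by
    apply Subtype.ext
    show (-1 : Matrix _ _ F) * (-1) = 1
    simp
  let P : Subgroup (Matrix.symplecticGroup (Fin m) F) := E.comap π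
  have hπ1 : ∀ x, π x = 1 ↔ x ∈ Z := fun x => QuotientGroup.eq_one_iff x
  have hzP : z ∈ P := by
    show π z ∈ E
    rw [(hπ1 z).2 hzZ]
    exact E.one_mem
  have hZP : Z ≤ P := by
    intro x hx
    show π x ∈ E
    rw [(hπ1 x).2 hx]
    exact E.one_mem
  have hsq : ∀ g ∈ P, g * g = 1 ∨ g * g = z := by
    intro g hg
    have h1 : π (g * g) = 1 := by
      rw [map_mul]
      exact hE _ hg
    exact (hZ _).1 ((hπ1 _).1 h1)
  have hcm : ∀ g ∈ P, ∀ h ∈ P, g * h = h * g ∨ g * h = z * (h * g) := by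
    intro g hg h hh
    have h1 : π (g * h * (h * g)⁻¹) = 1 := by
      rw [map_mul, map_inv, map_mul, map_mul, comm_of_sq E hE hg hh]
      simp
    rcases (hZ _).1 ((hπ1 _).1 h1) with h3 | h3
    · left
      exact mul_inv_eq_one.1 h3
    · right
      rw [← h3]
      group
  obtain ⟨A₀, hZA, hA₀m⟩ := Finite.exists_le_maximal
    (p := fun B : Subgroup (Matrix.symplecticGroup (Fin m) F) =>
      B ≤ P ∧ z ∈ B ∧ ∀ b ∈ B, b * b = 1) (a := Z) ⟨hZP, hzZ, fun b hb => by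
        rcases (hZ b).1 hb with rfl | rfl
        · simp
        · exact hzz⟩
  obtain ⟨⟨hAP, hzA, hA₀⟩, hmax⟩ := hA₀m
  have hmax' : ∀ B : Subgroup (Matrix.symplecticGroup (Fin m) F), B ≤ P → z ∈ B →
      (∀ b ∈ B, b * b = 1) → A₀ ≤ B → B ≤ A₀ := fun B h1 h3 h4 h5 => hmax ⟨h1, h3, h4⟩ h5
  have hC := card_C_le z hzc hzz P hsq hcm A₀ hA₀ hAP hzA hmax'
  have hXA := card_A₀_le h2 hA₀
  have hXm := card_X_le h2 hA₀
  -- a character occurs
  have hnt : Nontrivial (Fin m ⊕ Fin m → F) := by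
    have : Nonempty (Fin m ⊕ Fin m) := ⟨Sum.inl ⟨0, by omega⟩⟩
    infer_instance
  obtain ⟨χ₀, hχ₀⟩ : ∃ χ₀ : A₀ → F, χ₀ ∈ XX A₀ := by
    by_contra hcon
    push Not at hcon
    have h1 : ⨆ χ, Vχ A₀ χ = ⊥ := by
      rw [eq_bot_iff]
      apply iSup_le
      intro χ
      have : Vχ A₀ χ = ⊥ := by
        by_contra h
        exact hcon χ h
      rw [this]
    rw [iSup_Vχ h2 hA₀] at h1
    exact top_ne_bot h1
  have hP := card_P_le h2 hA₀ hzA P hcm hAP hzc χ₀ hχ₀
  -- the size of `P`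
  have hcardP : 2 * Nat.card E ≤ Nat.card P := by
    have i1 : P.index = E.index := Subgroup.index_comap_of_surjective E (QuotientGroup.mk'_surjective Z)
    have c1 := Subgroup.card_mul_index P
    have c2 := Subgroup.card_mul_index E
    have c3 : Nat.card (Matrix.symplecticGroup (Fin m) F) = Nat.card (Cfsg.PSp m F) * Nat.card Z :=
      Subgroup.card_eq_card_quotient_mul_card_subgroup Z
    have c4 : Nat.card Z = 2 := by
      have h3 := card_center_symplecticGroup (F := F) rfl hm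
      rw [show Nat.card (Subgroup.center (Matrix.symplecticGroup (Fin m) F)) = Nat.card Z from rfl] at h3
      rw [h3]
      have h4 : 2 ∣ Fintype.card F - 1 := by
        obtain ⟨k, hk⟩ := hodd
        omega
      exact Nat.gcd_eq_left h4
    have hi : E.index ≠ 0 := Subgroup.index_ne_zero_of_finite
    rw [c4] at c3
    rw [i1] at c1
    have h5 : Nat.card P * E.index = (2 * Nat.card E) * E.index := by
      rw [c1, c3, ← c2]
      ring
    exact (Nat.eq_of_mul_eq_mul_right (Nat.pos_of_ne_zero hi) h5).symm.le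
  set s := Nat.card (XX A₀) with hs
  have hpow : 2 ^ s ≤ 2 ^ m := Nat.pow_le_pow_right (by norm_num) hXm
  have h5 : 2 * Nat.card E ≤ m * (4 * 2 ^ m) := by
    calc 2 * Nat.card E ≤ Nat.card P := hcardP
      _ ≤ s * Nat.card ↥(P ⊓ Subgroup.centralizer (A₀ : Set (Matrix.symplecticGroup (Fin m) F))) := hP
      _ ≤ m * (4 * 2 ^ m) := by
        apply Nat.mul_le_mul hXm
        calc _ ≤ 4 * Nat.card A₀ := hC
          _ ≤ 4 * 2 ^ s := Nat.mul_le_mul_left _ hXA
          _ ≤ 4 * 2 ^ m := Nat.mul_le_mul_left _ hpow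
  have h6 : m * (4 * 2 ^ m) = 2 * (2 ^ (m + 1) * m) := by
    rw [pow_succ]
    ring
  rw [h6] at h5
  omega

end linear

end Cfsg.Agent.Lib.Witt.PSpRank
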