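/-
The normaliser of the diagonal torus of `Sp_2m(q)`: monomial symplectic matrices, of order
`2^m m! (q-1)^m` for `q ≥ 4`.
-/
import Mathlib
import Cfsg.Agent.Lib.Classical.SympCount
import Cfsg.Agent.Lib.Classical.NormalSL

set_option autoImplicit false

namespace Cfsg.Agent.Lib.Witt.SympTorus

open Matrix Cfsg
open Cfsg.Agent.Lib.Classical.SympForm Cfsg.Agent.Lib.Classical.SympCount

variable {F : Type*} [Field F] {m : ℕ}

/-- The coordinate vector. -/
abbrev e (s : Fin m ⊕ Fin m) : Fin m ⊕ Fin m → F := Pi.single s 1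

/-- The involution pairing the coordinates. -/
abbrev swp (m : ℕ) : Equiv.Perm (Fin m ⊕ Fin m) := Equiv.sumComm (Fin m) (Fin m)

/-- The sign of a coordinate. -/
def sgn (F : Type*) [Field F] (m : ℕ) : Fin m ⊕ Fin m → Fˣ := Sum.elim (fun _ => -1) (fun _ => 1)

theorem J_apply (k l : Fin m ⊕ Fin m) :
    Matrix.J (Fin m) F k l = if l = swp m k then (sgn F m k : F) else 0 := by
  rcases k with i | i <;> rcases l with j | j <;>
    simp [Matrix.J, Matrix.one_apply, sgn, eq_comm] <;> split_ifs <;> simp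

theorem sgn_swp (s : Fin m ⊕ Fin m) : sgn F m (swp m s) = - sgn F m s := by
  rcases s with i | i <;> simp [sgn]

theorem sgn_mul_self (s : Fin m ⊕ Fin m) : sgn F m s * sgn F m s = 1 := by
  rcases s with i | i <;> simp [sgn]

theorem sympForm_smul_single (a b : F) (k l : Fin m ⊕ Fin m) :
    sympForm m F (a • e k) (b • e l) = a * b * Matrix.J (Fin m) F k l := by
  have h : sympForm m F (a • e k) (b • e l) = sympBilin m F (a • e k) (b • e l) := rfl
  rw [h]
  simp only [map_smul, LinearMap.smul_apply, sympBilin_apply, smul_eq_mul]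
  rw [sympForm_single_single]
  ring

theorem inv_mulVec_mulVec (M : Matrix.symplecticGroup (Fin m) F) (x : Fin m ⊕ Fin m → F) :
    (M⁻¹).1 *ᵥ (M.1 *ᵥ x) = x := by
  rw [Matrix.mulVec_mulVec, ← Submonoid.coe_mul, inv_mul_cancel]
  simp

theorem mulVec_inv_mulVec (M : Matrix.symplecticGroup (Fin m) F) (x : Fin m ⊕ Fin m → F) :
    M.1 *ᵥ ((M⁻¹).1 *ᵥ x) = x := by
  rw [Matrix.mulVec_mulVec, ← Submonoid.coe_mul, mul_inv_cancel]
  simp

theorem mulVec_inj (M : Matrix.symplecticGroup (Fin m) F) {x y : Fin m ⊕ Fin m → F}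
    (h : M.1 *ᵥ x = M.1 *ᵥ y) : x = y := by
  rw [← inv_mulVec_mulVec M x, h, inv_mulVec_mulVec]

theorem e_ne_zero (s : Fin m ⊕ Fin m) : (e s : Fin m ⊕ Fin m → F) ≠ 0 := by
  intro h
  have := congrFun h s
  simp at this

theorem mem_stab_axis (M : Matrix.symplecticGroup (Fin m) F) (s : Fin m ⊕ Fin m) :
    M ∈ stabilizing (spToMat m F)
      ((Submodule.span F {(e s : Fin m ⊕ Fin m → F)} : Submodule F (Fin m ⊕ Fin m → F)) :
        Set (Fin m ⊕ Fin m → F)) ↔ ∃ d : F, M.1 *ᵥ e s = d • e s := by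
  constructor
  · intro h
    have h1 : (e s : Fin m ⊕ Fin m → F) ∈ Submodule.span F {(e s : Fin m ⊕ Fin m → F)} :=
      Submodule.mem_span_singleton_self _
    have h2 := (h (e s)).1 h1
    have h3 : M.1 *ᵥ e s ∈ Submodule.span F {(e s : Fin m ⊕ Fin m → F)} := h2
    obtain ⟨d, hd⟩ := Submodule.mem_span_singleton.1 h3
    exact ⟨d, hd.symm⟩
  · rintro ⟨d, hd⟩ v
    have hd0 : d ≠ 0 := by
      rintro rfl
      rw [zero_smul] at hd
      have h1 : M.1 *ᵥ e s = M.1 *ᵥ 0 := by rw [hd, Matrix.mulVec_zero]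
      exact e_ne_zero s (mulVec_inj M h1)
    show v ∈ Submodule.span F {(e s : Fin m ⊕ Fin m → F)} ↔
      M.1 *ᵥ v ∈ Submodule.span F {(e s : Fin m ⊕ Fin m → F)}
    rw [Submodule.mem_span_singleton, Submodule.mem_span_singleton]
    constructor
    · rintro ⟨a, rfl⟩
      refine ⟨a * d, ?_⟩
      rw [Matrix.mulVec_smul, hd, smul_smul]
    · rintro ⟨a, ha⟩
      refine ⟨a / d, ?_⟩
      apply mulVec_inj M
      rw [Matrix.mulVec_smul, hd, smul_smul, div_mul_cancel₀ _ hd0, ha]

/-- The torus. -/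
abbrev Tor (m : ℕ) (F : Type*) [Field F] : Subgroup (Matrix.symplecticGroup (Fin m) F) :=
  ⨅ i : Fin m ⊕ Fin m, stabilizing (spToMat m F)
    ((Submodule.span F {(Pi.single i (1 : F) : Fin m ⊕ Fin m → F)} :
      Submodule F (Fin m ⊕ Fin m → F)) : Set (Fin m ⊕ Fin m → F))

theorem mem_Tor (M : Matrix.symplecticGroup (Fin m) F) :
    M ∈ Tor m F ↔ ∀ s, ∃ d : F, M.1 *ᵥ e s = d • e s := by
  rw [Subgroup.mem_iInf]
  exact forall_congr' fun s => mem_stab_axis M s

/-- Diagonal entries of a torus element. -/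
def tv (t : Fin m → Fˣ) : Fin m ⊕ Fin m → F :=
  Sum.elim (fun i => (t i : F)) (fun i => (((t i)⁻¹ : Fˣ) : F))

theorem diag_mulVec_single (t : Fin m → Fˣ) (s : Fin m ⊕ Fin m) :
    Matrix.diagonal (tv t) *ᵥ e s = (tv t s) • e s := by
  rw [Matrix.mulVec_single_one]
  ext a
  by_cases h : a = s
  · subst h
    simp
  · simp [h]

theorem tv_mul_swp (t : Fin m → Fˣ) (s : Fin m ⊕ Fin m) :
    (tv t s) * (tv t (swp m s)) = (1 : F) := by
  rcases s with i | i <;> simp [tv]

/-- The torus elements. -/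
def toral (t : Fin m → Fˣ) : Matrix.symplecticGroup (Fin m) F :=
  ⟨Matrix.diagonal (tv t), by
    apply mem_symplecticGroup_of_basis
    intro k l
    rw [diag_mulVec_single, diag_mulVec_single, sympForm_smul_single, J_apply]
    split_ifs with h
    · subst h
      rw [tv_mul_swp, one_mul]
    · simp⟩

theorem toral_mem (t : Fin m → Fˣ) : (toral t : Matrix.symplecticGroup (Fin m) F) ∈ Tor m F := by
  rw [mem_Tor]
  intro s
  exact ⟨tv t s, diag_mulVec_single t s⟩

theorem exists_tv_ne (x : Fˣ) (hx : (x : F) ^ 2 ≠ 1) (a b : Fin m ⊕ Fin m) (hab : a ≠ b) :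
    ∃ t : Fin m → Fˣ, (tv t a : F) ≠ tv t b := by
  classical
  have h1 : (x : F) ≠ 1 := by
    intro h
    apply hx
    rw [h, one_pow]
  have h1' : x ≠ 1 := fun h => h1 (by rw [h]; rfl)
  have hx0 : (x : F) ≠ 0 := x.ne_zero
  have h2 : (x : F)⁻¹ ≠ 1 := by
    intro h
    apply h1
    field_simp at h
    exact h.symm
  have h3 : (x : F) ≠ (x : F)⁻¹ := by
    intro h
    apply hx
    rw [sq]
    nth_rewrite 2 [h]
    field_simp
  refine ⟨fun k => if k = (Sum.elim id id a : Fin m) then x else 1, ?_⟩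
  rcases a with i | i <;> rcases b with j | j
  · have hij : j ≠ i := fun h => hab (by rw [h])
    simp [tv, hij, h1]
  · by_cases hij : j = i
    · simp [tv, hij, h3]
    · simp [tv, hij, h1']
  · by_cases hij : j = i
    · simp [tv, hij, h3.symm]
    · simp [tv, hij, h1']
  · have hij : j ≠ i := fun h => hab (by rw [h])
    simp [tv, hij, h1']

/-- An element of the normaliser sends each coordinate vector to a multiple of a coordinate vector. -/
theorem exists_single_of_normalizer (x : Fˣ) (hx : (x : F) ^ 2 ≠ 1)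
    (g : Matrix.symplecticGroup (Fin m) F)
    (hg : g ∈ Subgroup.normalizer (Tor m F : Set (Matrix.symplecticGroup (Fin m) F)))
    (s : Fin m ⊕ Fin m) : ∃ (a : Fin m ⊕ Fin m) (c : F), g.1 *ᵥ e s = c • e a := by
  classical
  set w := g.1 *ᵥ (e s : Fin m ⊕ Fin m → F) with hw
  have hw0 : w ≠ 0 := by
    intro h
    have h1 : g.1 *ᵥ e s = g.1 *ᵥ 0 := by rw [← hw, h, Matrix.mulVec_zero]
    exact e_ne_zero s (mulVec_inj g h1)
  obtain ⟨a, ha⟩ := Function.ne_iff.1 hw0
  have hginv : g⁻¹ ∈ Subgroup.normalizer (Tor m F : Set (Matrix.symplecticGroup (Fin m) F)) :=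
    inv_mem hg
  have heig : ∀ t : Fin m → Fˣ, ∃ d : F, ∀ b, tv t b * w b = d * w b := by
    intro t
    have h1 := (Subgroup.mem_normalizer_iff.1 hginv (toral t)).1 (toral_mem t)
    rw [inv_inv] at h1
    obtain ⟨d, hd⟩ := (mem_Tor _).1 h1 s
    refine ⟨d, fun b => ?_⟩
    have h2 : (toral t : Matrix.symplecticGroup (Fin m) F).1 *ᵥ w = d • w := by
      have h3 := congrArg (fun v => g.1 *ᵥ v) hd
      simp only [Submonoid.coe_mul, ← Matrix.mulVec_mulVec, Matrix.mulVec_smul] at h3
      rwa [mulVec_inv_mulVec] at h3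
    have h4 := congrFun h2 b
    simpa [toral, Matrix.mulVec_diagonal] using h4
  have hsupp : ∀ b, b ≠ a → w b = 0 := by
    intro b hb
    by_contra hne
    obtain ⟨t, ht⟩ := exists_tv_ne x hx a b hb.symm
    obtain ⟨d, hd⟩ := heig t
    apply ht
    have e1 := mul_right_cancel₀ ha (hd a)
    have e2 := mul_right_cancel₀ hne (hd b)
    rw [e1, e2]
  refine ⟨a, w a, ?_⟩
  ext b
  by_cases hb : b = a
  · subst hb
    simp
  · simp [hsupp b hb, hb]

theorem mat_ext_single {A B : Matrix (Fin m ⊕ Fin m) (Fin m ⊕ Fin m) F}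
    (h : ∀ s, A *ᵥ (e s : Fin m ⊕ Fin m → F) = B *ᵥ e s) : A = B := by
  ext i j
  have := congrFun (h j) i
  simpa [Matrix.mulVec_single_one] using this

/-- The monomial matrix. -/
def monoMat (π : Equiv.Perm (Fin m ⊕ Fin m)) (c : Fin m ⊕ Fin m → Fˣ) :
    Matrix (Fin m ⊕ Fin m) (Fin m ⊕ Fin m) F :=
  Matrix.of fun a b => if a = π b then (c b : F) else 0

theorem monoMat_single (π : Equiv.Perm (Fin m ⊕ Fin m)) (c : Fin m ⊕ Fin m → Fˣ)
    (b : Fin m ⊕ Fin m) : monoMat π c *ᵥ (e b : Fin m ⊕ Fin m → F) = (c b : F) • e (π b) := by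
  rw [Matrix.mulVec_single_one]
  ext a
  by_cases h : a = π b
  · subst h
    simp [monoMat, Matrix.col_apply]
  · simp [monoMat, Matrix.col_apply, h]

/-- Extract the monomial data. -/
theorem exists_mono_data (g : Matrix.symplecticGroup (Fin m) F)
    (h : ∀ s, ∃ (a : Fin m ⊕ Fin m) (c : F), g.1 *ᵥ e s = c • e a) :
    ∃ (π : Equiv.Perm (Fin m ⊕ Fin m)) (c : Fin m ⊕ Fin m → Fˣ),
      ∀ s, g.1 *ᵥ e s = (c s : F) • e (π s) := by
  classical
  choose π₀ c₀ h₀ using h
  have hc0 : ∀ s, c₀ s ≠ 0 := by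
    intro s hs
    have h1 := h₀ s
    rw [hs, zero_smul] at h1
    have h2 : g.1 *ᵥ e s = g.1 *ᵥ 0 := by rw [h1, Matrix.mulVec_zero]
    exact e_ne_zero s (mulVec_inj g h2)
  have hinj : Function.Injective π₀ := by
    intro s s' hss
    by_contra hne
    have h1 : g.1 *ᵥ ((c₀ s') • e s) = g.1 *ᵥ ((c₀ s) • e s') := by
      rw [Matrix.mulVec_smul, Matrix.mulVec_smul, h₀, h₀, hss, smul_smul, smul_smul, mul_comm]
    have h2 := mulVec_inj g h1
    have h3 := congrFun h2 s
    simp [Ne.symm hne, hne, hc0] at h3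
  let π : Equiv.Perm (Fin m ⊕ Fin m) :=
    Equiv.ofBijective π₀ (Finite.injective_iff_bijective.1 hinj)
  refine ⟨π, fun s => Units.mk0 (c₀ s) (hc0 s), fun s => ?_⟩
  simpa [π] using h₀ s

/-- The relations imposed on monomial data by being symplectic. -/
theorem mono_rel (g : Matrix.symplecticGroup (Fin m) F)
    (π : Equiv.Perm (Fin m ⊕ Fin m)) (c : Fin m ⊕ Fin m → Fˣ)
    (h : ∀ s, g.1 *ᵥ e s = (c s : F) • e (π s)) (s : Fin m ⊕ Fin m) :
    π (swp m s) = swp m (π s) ∧ c s * c (swp m s) * sgn F m (π s) = sgn F m s := by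
  have h1 := (mem_symplecticGroup_iff _).1 g.2 (e s) (e (swp m s))
  rw [h, h, sympForm_smul_single, sympForm_single_single, J_apply, J_apply] at h1
  have h2 : π (swp m s) = swp m (π s) := by
    by_contra hne
    rw [if_neg hne] at h1
    simp only [mul_zero, if_true] at h1
    exact (sgn F m s).ne_zero h1.symm
  refine ⟨h2, ?_⟩
  rw [if_pos h2] at h1
  simp only [if_true] at h1
  apply Units.ext
  simpa using h1

/-- A monomial matrix satisfying the relations is symplectic. -/
theorem monoMat_mem (π : Equiv.Perm (Fin m ⊕ Fin m)) (c : Fin m ⊕ Fin m → Fˣ)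
    (h1 : ∀ s, π (swp m s) = swp m (π s))
    (h2 : ∀ s, c s * c (swp m s) * sgn F m (π s) = sgn F m s) :
    monoMat π c ∈ Matrix.symplecticGroup (Fin m) F := by
  apply mem_symplecticGroup_of_basis
  intro k l
  rw [monoMat_single, monoMat_single, sympForm_smul_single, J_apply, J_apply]
  by_cases hl : l = swp m k
  · subst hl
    rw [if_pos (h1 k), if_pos rfl]
    have := congrArg (fun u : Fˣ => (u : F)) (h2 k)
    simpa using this
  · have : π l ≠ swp m (π k) := by
      intro h
      rw [← h1] at h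
      exact hl (π.injective h)
    rw [if_neg this, if_neg hl]
    simp

/-- The normaliser contains monomial matrices. -/
theorem mem_normalizer_of_mono [Finite F] (g : Matrix.symplecticGroup (Fin m) F)
    (π : Equiv.Perm (Fin m ⊕ Fin m)) (c : Fin m ⊕ Fin m → Fˣ)
    (h : ∀ s, g.1 *ᵥ e s = (c s : F) • e (π s)) :
    g ∈ Subgroup.normalizer (Tor m F : Set (Matrix.symplecticGroup (Fin m) F)) := by
  apply Subgroup.mem_normalizer_fintype
  intro n hn
  have hn' : n ∈ Tor m F := hn
  show g * n * g⁻¹ ∈ Tor m F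
  rw [mem_Tor]
  intro s
  obtain ⟨b, rfl⟩ := π.surjective s
  obtain ⟨d, hd⟩ := (mem_Tor n).1 hn' b
  refine ⟨d, ?_⟩
  have hinv : (g⁻¹).1 *ᵥ e (π b) = ((c b)⁻¹ : Fˣ) • e b := by
    apply mulVec_inj g
    rw [mulVec_inv_mulVec, Units.smul_def, Matrix.mulVec_smul, h, smul_smul]
    simp
  simp only [Submonoid.coe_mul, ← Matrix.mulVec_mulVec]
  rw [hinv, Units.smul_def, Matrix.mulVec_smul, hd, smul_smul, Matrix.mulVec_smul, h, smul_smul]
  simp only [Units.val_inv_eq_inv_val]
  have hc0 : (c b : F) ≠ 0 := (c b).ne_zero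
  congr 1
  field_simp

/-- The second half of the coefficients, determined by the first half. -/
def cOf (π : Equiv.Perm (Fin m ⊕ Fin m)) (d : Fin m → Fˣ) : Fin m ⊕ Fin m → Fˣ :=
  Sum.elim d (fun i => (d i)⁻¹ * sgn F m (Sum.inl i) * sgn F m (π (Sum.inl i)))

theorem cOf_rel (π : Equiv.Perm (Fin m ⊕ Fin m)) (d : Fin m → Fˣ)
    (h1 : ∀ s, π (swp m s) = swp m (π s)) (s : Fin m ⊕ Fin m) :
    cOf π d s * cOf π d (swp m s) * sgn F m (π s) = sgn F m s := by
  rcases s with i | i
  · have h2 := sgn_mul_self (F := F) (π (Sum.inl i))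
    simp only [cOf, Equiv.sumComm_apply, Sum.swap_inl, Sum.elim_inl, Sum.elim_inr]
    rw [mul_assoc (d i)⁻¹, mul_inv_cancel_left, mul_assoc, h2, mul_one]
  · have h2 := sgn_mul_self (F := F) (π (Sum.inl i))
    have h3 := h1 (Sum.inl i)
    have h4 : π (Sum.inr i) = swp m (π (Sum.inl i)) := by
      rw [← h3]
      rfl
    rw [h4, sgn_swp]
    simp only [cOf, Equiv.sumComm_apply, Sum.swap_inr, Sum.elim_inl, Sum.elim_inr]
    have h5 : sgn F m (Sum.inr i) = - sgn F m (Sum.inl i) := by simp [sgn]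
    rw [h5, mul_neg, neg_inj]
    calc (d i)⁻¹ * sgn F m (Sum.inl i) * sgn F m (π (Sum.inl i)) * d i * sgn F m (π (Sum.inl i))
        = sgn F m (Sum.inl i) * (sgn F m (π (Sum.inl i)) * sgn F m (π (Sum.inl i))) * ((d i)⁻¹ * d i) := by
          ac_rfl
      _ = _ := by rw [h2, inv_mul_cancel, mul_one, mul_one]

/-- Nonzero scalars. -/
theorem card_param [Fintype F] :
    Nat.card (Fin m → Fˣ) = (Fintype.card F - 1) ^ m := by
  classical
  rw [Nat.card_eq_fintype_card, Fintype.card_fun, Fintype.card_units, Fintype.card_fin]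

/-- The centraliser of a fixed-point-free involution. -/
theorem card_centralizer_swp :
    Nat.card (Subgroup.centralizer {swp m}) = 2 ^ m * Nat.factorial m := by
  classical
  have hord : (swp m) ^ 2 = 1 := by
    ext s
    rcases s with i | i <;> simp [sq]
  have htwo : ∀ n ∈ (swp m).cycleType, n = 2 := by
    intro n hn
    have h1 : n ∣ orderOf (swp m) := Equiv.Perm.dvd_of_mem_cycleType hn
    have h2 : orderOf (swp m) ∣ 2 := orderOf_dvd_of_pow_eq_one hord
    have h3 : n ∣ 2 := h1.trans h2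
    have h4 := Equiv.Perm.two_le_of_mem_cycleType hn
    have h5 := Nat.le_of_dvd (by norm_num) h3
    omega
  have hsum : (swp m).cycleType.sum = 2 * m := by
    rw [Equiv.Perm.sum_cycleType]
    have : (swp m).support = Finset.univ := by
      ext s
      simp only [Equiv.Perm.mem_support, Finset.mem_univ, iff_true]
      rcases s with i | i <;> simp
    rw [this, Finset.card_univ]
    simp
    ring
  have hrep : (swp m).cycleType = Multiset.replicate m 2 := by
    have h1 := Multiset.eq_replicate_card.2 htwo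
    rw [h1] at hsum
    rw [Multiset.sum_replicate] at hsum
    simp only [smul_eq_mul] at hsum
    rw [h1]
    congr 1
    omega
  rw [Equiv.Perm.nat_card_centralizer, hsum, hrep]
  have hcard : Fintype.card (Fin m ⊕ Fin m) = 2 * m := by
    simp
    ring
  rw [hcard, Nat.sub_self, Nat.factorial_zero, one_mul, Multiset.prod_replicate]
  congr 1
  rcases Nat.eq_zero_or_pos m with rfl | hm
  · simp
  · rw [Multiset.toFinset_replicate, if_neg (by omega)]
    simp

/-- The main theorem. -/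
theorem card_normalizer [Fintype F] (hq : 4 ≤ Fintype.card F) :
    Nat.card ↥(Subgroup.normalizer (Tor m F : Set (Matrix.symplecticGroup (Fin m) F))) =
      2 ^ m * Nat.factorial m * (Fintype.card F - 1) ^ m := by
  classical
  obtain ⟨x₀, hx₀, hx₀'⟩ := Cfsg.Agent.Lib.Classical.NormalSL.exists_ne_zero_sq_ne_one (F := F)
    (by simpa using hq)
  let x : Fˣ := Units.mk0 x₀ hx₀
  have hx : (x : F) ^ 2 ≠ 1 := hx₀'
  let Φ : ↥(Subgroup.centralizer {swp m}) × (Fin m → Fˣ) →
      ↥(Subgroup.normalizer (Tor m F : Set (Matrix.symplecticGroup (Fin m) F))) :=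
    fun p => by
      have h1 : ∀ s, p.1.1 (swp m s) = swp m (p.1.1 s) := by
        intro s
        have := Subgroup.mem_centralizer_singleton_iff.1 p.1.2
        exact congrFun (congrArg (fun f : Equiv.Perm _ => (f : _ → _)) this) s
      exact ⟨⟨monoMat p.1.1 (cOf p.1.1 p.2), monoMat_mem _ _ h1 (cOf_rel p.1.1 p.2 h1)⟩,
        mem_normalizer_of_mono _ p.1.1 (cOf p.1.1 p.2) (monoMat_single _ _)⟩
  have hΦ : ∀ p s, (Φ p).1.1 *ᵥ (e s : Fin m ⊕ Fin m → F) =
      ((cOf p.1.1 p.2 s : Fˣ) : F) • e (p.1.1 s) := fun p s => monoMat_single _ _ s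
  have hinj : Function.Injective Φ := by
    rintro ⟨π, d⟩ ⟨π', d'⟩ hp
    have h1 : ∀ s, ((cOf π.1 d s : Fˣ) : F) • (e (π.1 s) : Fin m ⊕ Fin m → F) =
        ((cOf π'.1 d' s : Fˣ) : F) • e (π'.1 s) := by
      intro s
      have h2 := hΦ (π, d) s
      have h3 := hΦ (π', d') s
      simp only at h2 h3
      rw [← h2, ← h3, hp]
    have h4 : ∀ s, π.1 s = π'.1 s := by
      intro s
      have h5 := congrFun (h1 s) (π.1 s)
      by_contra hne
      simp [Pi.single_apply, hne] at h5
    have h6 : π = π' := by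
      apply Subtype.ext
      ext s
      rw [h4]
    subst h6
    have h7 : d = d' := by
      funext i
      have h8 := h1 (Sum.inl i)
      have h9 := congrFun h8 (π.1 (Sum.inl i))
      simp only [Pi.smul_apply, Pi.single_eq_same, smul_eq_mul, mul_one] at h9
      exact Units.ext h9
    rw [h7]
  have hsurj : Function.Surjective Φ := by
    rintro ⟨g, hg⟩
    obtain ⟨π, c, hc⟩ := exists_mono_data g (exists_single_of_normalizer x hx g hg)
    have hrel := mono_rel g π c hc
    have hπ : π ∈ Subgroup.centralizer {swp m} := by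
      rw [Subgroup.mem_centralizer_singleton_iff]
      ext1 s
      exact (hrel s).1
    refine ⟨(⟨π, hπ⟩, fun i => c (Sum.inl i)), ?_⟩
    apply Subtype.ext
    apply Subtype.ext
    apply mat_ext_single
    intro s
    rw [hΦ]
    show _ = g.1 *ᵥ e s
    rw [hc]
    have h6 : cOf π (fun i => c (Sum.inl i)) s = c s := by
      rcases s with i | i
      · rfl
      · have h5 := (hrel (Sum.inl i)).2
        simp only [Equiv.sumComm_apply, Sum.swap_inl] at h5
        simp only [cOf, Sum.elim_inr]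
        rw [← h5, mul_assoc (c _), inv_mul_cancel_left, mul_assoc, sgn_mul_self, mul_one]
    show ((cOf π (fun i => c (Sum.inl i)) s : Fˣ) : F) • _ = _
    rw [h6]
  have := Nat.card_congr (Equiv.ofBijective Φ ⟨hinj, hsurj⟩)
  rw [← this, Nat.card_prod, card_centralizer_swp, card_param]

end Cfsg.Agent.Lib.Witt.SympTorus
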